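import Mathlib

set_option autoImplicit false

namespace Cfsg.Agent.Lib.Helper24.CycInert

variable {G : Type*} [Group G]

theorem conj_pow_iter (t y : G) (k : ℕ) (h : y ^ k = t * y * t⁻¹) (j : ℕ) :
    t ^ j * y * (t ^ j)⁻¹ = y ^ (k ^ j) := by
  induction j with
  | zero => simp
  | succ j ih =>
    have h1 : t ^ (j + 1) * y * (t ^ (j + 1))⁻¹ = t * (t ^ j * y * (t ^ j)⁻¹) * t⁻¹ := by
      rw [pow_succ']
      group
    rw [h1, ih]
    have h2 : t * y ^ (k ^ j) * t⁻¹ = (t * y * t⁻¹) ^ (k ^ j) := by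
      rw [conj_pow]
    rw [h2, ← h, ← pow_mul, ← pow_succ']

theorem zmod_units_cyclic {p : ℕ} [Fact p.Prime] (m : ℕ) (hm : m = p) :
    IsCyclic (ZMod m)ˣ ∧ Nat.card (ZMod m)ˣ = p - 1 := by
  subst hm
  refine ⟨inferInstance, ?_⟩
  rw [Nat.card_eq_fintype_card, ZMod.card_units_eq_totient, Nat.totient_prime Fact.out]

theorem mem_centralizer_of_modEq [Finite G] {p : ℕ} [Fact p.Prime] (P T : Subgroup G)
    (y : G) (hy : ∀ x ∈ P, ∃ m : ℕ, y ^ m = x) (n : ℕ) (hord : orderOf y = p ^ (n + 1))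
    (hidx : ¬ p ∣ (Subgroup.centralizer (P : Set G)).relIndex T)
    [hn : ((Subgroup.centralizer (P : Set G)).subgroupOf T).Normal]
    (t : G) (ht : t ∈ T) (k : ℕ) (hk : y ^ k = t * y * t⁻¹) (hk1 : k ≡ 1 [MOD p]) :
    t ∈ Subgroup.centralizer (P : Set G) := by
  have hp := (Fact.out : p.Prime)
  have h1 := conj_pow_iter t y k hk (p ^ n)
  have h2 : k ^ (p ^ n) ≡ 1 [MOD p ^ (n + 1)] := by
    have h3 : ((p : ℕ) : ℤ) ∣ (k : ℤ) - 1 := by
      have h30 := Nat.modEq_iff_dvd.mp hk1.symm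
      simpa using h30
    have h4 := dvd_sub_pow_of_dvd_sub h3 n
    rw [one_pow] at h4
    apply Nat.ModEq.symm
    rw [Nat.modEq_iff_dvd]
    push_cast
    exact h4
  have h5 : y ^ (k ^ (p ^ n)) = y := by
    have h50 : y ^ (k ^ (p ^ n)) = y ^ 1 := by
      rw [pow_eq_pow_iff_modEq, hord]
      exact h2
    rwa [pow_one] at h50
  rw [h5] at h1
  have h6 : t ^ (p ^ n) ∈ Subgroup.centralizer (P : Set G) := by
    rw [Subgroup.mem_centralizer_iff]
    intro x hx
    obtain ⟨m, rfl⟩ := hy x hx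
    have h7 : t ^ (p ^ n) * y = y * t ^ (p ^ n) := by
      calc t ^ (p ^ n) * y = (t ^ (p ^ n) * y * (t ^ (p ^ n))⁻¹) * t ^ (p ^ n) := by group
        _ = y * t ^ (p ^ n) := by rw [h1]
    exact ((Commute.pow_right (h7 : Commute (t ^ (p ^ n)) y) m).eq).symm
  obtain ⟨q, hq⟩ : ∃ q : T ⧸ (Subgroup.centralizer (P : Set G)).subgroupOf T,
      q = QuotientGroup.mk (⟨t, ht⟩ : T) := ⟨_, rfl⟩
  have h8' : ((⟨t, ht⟩ : T) ^ (p ^ n) : T) ∈ (Subgroup.centralizer (P : Set G)).subgroupOf T := by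
    rw [Subgroup.mem_subgroupOf]
    exact h6
  have h8 : q ^ (p ^ n) = 1 := by
    rw [hq, ← QuotientGroup.mk_pow]
    exact (QuotientGroup.eq_one_iff _).mpr h8'
  have h9 : orderOf q ∣ p ^ n := orderOf_dvd_of_pow_eq_one h8
  have h10 : orderOf q ∣ (Subgroup.centralizer (P : Set G)).relIndex T := orderOf_dvd_natCard q
  have h11 : orderOf q = 1 := by
    have hcop : Nat.Coprime (p ^ n) ((Subgroup.centralizer (P : Set G)).relIndex T) :=
      Nat.Coprime.pow_left n ((Nat.Prime.coprime_iff_not_dvd hp).mpr hidx)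
    have h12 := Nat.dvd_gcd h9 h10
    rw [Nat.Coprime.gcd_eq_one hcop] at h12
    exact Nat.dvd_one.mp h12
  rw [orderOf_eq_one_iff, hq, QuotientGroup.eq_one_iff, Subgroup.mem_subgroupOf] at h11
  exact h11

theorem cyc_inertial [Finite G] {p : ℕ} [Fact p.Prime] (P T : Subgroup G)
    (hP : IsPGroup p P) (hcyc : IsCyclic P) (hP1 : P ≠ ⊥)
    (hTN : T ≤ Subgroup.normalizer (P : Set G))
    (hidx : ¬ p ∣ (Subgroup.centralizer (P : Set G)).relIndex T)
    [hn : ((Subgroup.centralizer (P : Set G)).subgroupOf T).Normal] :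
    IsCyclic (T ⧸ (Subgroup.centralizer (P : Set G)).subgroupOf T) ∧
    (Subgroup.centralizer (P : Set G)).relIndex T ∣ p - 1 ∧
    ∀ g ∈ T, ∀ x ∈ P, x ≠ 1 → g * x * g⁻¹ = x → g ∈ Subgroup.centralizer (P : Set G) := by
  classical
  have hp := (Fact.out : p.Prime)
  obtain ⟨y', hy'⟩ := hcyc.exists_generator
  obtain ⟨y, hyd⟩ : ∃ y : G, y = (y' : G) := ⟨_, rfl⟩
  have hyP : y ∈ P := by
    rw [hyd]
    exact y'.2
  have hy : ∀ x ∈ P, ∃ m : ℕ, y ^ m = x := by
    intro x hx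
    have h1 := hy' ⟨x, hx⟩
    rw [← mem_powers_iff_mem_zpowers] at h1
    obtain ⟨m, hm⟩ := h1
    refine ⟨m, ?_⟩
    have h2 := congrArg (Subtype.val) hm
    rw [hyd]
    exact h2
  have hordy : orderOf y = Nat.card P := by
    rw [hyd, Subgroup.orderOf_coe]
    exact orderOf_eq_card_of_forall_mem_zpowers hy'
  obtain ⟨n', hn'⟩ := IsPGroup.iff_card.mp hP
  have hn'pos : n' ≠ 0 := by
    intro h0
    rw [h0, pow_zero] at hn'
    exact hP1 (Subgroup.card_eq_one.mp hn')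
  obtain ⟨n, rfl⟩ := Nat.exists_eq_succ_of_ne_zero hn'pos
  have hord : orderOf y = p ^ (n + 1) := by
    rw [hordy, hn']
  have hconj : ∀ t ∈ T, ∃ k : ℕ, y ^ k = t * y * t⁻¹ := by
    intro t ht
    exact hy _ ((Subgroup.mem_normalizer_iff.mp (hTN ht) y).mp hyP)
  have hfree : ∀ g ∈ T, ∀ x ∈ P, x ≠ 1 → g * x * g⁻¹ = x →
      g ∈ Subgroup.centralizer (P : Set G) := by
    intro g hg x hx hx1 hgx
    obtain ⟨k, hk⟩ := hconj g hg
    obtain ⟨m, rfl⟩ := hy x hx
    have h1 : y ^ (k * m) = y ^ m := by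
      rw [pow_mul, hk, conj_pow]
      exact hgx
    have h2 : k * m ≡ m [MOD p ^ (n + 1)] := by
      rw [← hord]
      exact pow_eq_pow_iff_modEq.mp h1
    have h3 : ¬ p ^ (n + 1) ∣ m := by
      intro hd
      apply hx1
      rw [← hord] at hd
      exact orderOf_dvd_iff_pow_eq_one.mp hd
    have hk1 : k ≡ 1 [MOD p] := by
      have h2' : k * m ≡ 1 * m [MOD p ^ (n + 1)] := by
        rw [one_mul]
        exact h2
      have h4 := Nat.ModEq.cancel_right_div_gcd (pow_pos hp.pos (n + 1)) h2'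
      obtain ⟨j, hj, hje⟩ := (Nat.dvd_prime_pow hp).mp (Nat.gcd_dvd_left (p ^ (n + 1)) m)
      have hjn : j ≠ n + 1 := by
        intro h
        apply h3
        rw [h] at hje
        rw [← hje]
        exact Nat.gcd_dvd_right _ _
      rw [hje, Nat.pow_div hj hp.pos] at h4
      exact h4.of_dvd (dvd_pow_self p (by omega))
    exact mem_centralizer_of_modEq P T y hy n hord hidx g hg k hk hk1
  obtain ⟨z, hzd⟩ : ∃ z : G, z = y ^ (p ^ n) := ⟨_, rfl⟩
  have hzP : z ∈ P := by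
    rw [hzd]
    exact P.pow_mem hyP _
  have hordz : orderOf z = p := by
    rw [hzd, orderOf_pow_of_dvd (pow_ne_zero n hp.ne_zero)
      (by rw [hord]; exact pow_dvd_pow p (Nat.le_succ n)), hord, pow_succ,
      Nat.mul_div_cancel_left _ (pow_pos hp.pos n)]
  have hz1 : z ≠ 1 := by
    intro h
    rw [h, orderOf_one] at hordz
    exact hp.one_lt.ne hordz
  have hTΩ : T ≤ Subgroup.normalizer ((Subgroup.zpowers z : Subgroup G) : Set G) := by
    have key : ∀ s ∈ T, ∀ w ∈ Subgroup.zpowers z, s * w * s⁻¹ ∈ Subgroup.zpowers z := by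
      intro s hs w hw
      obtain ⟨i, rfl⟩ := Subgroup.mem_zpowers_iff.mp hw
      obtain ⟨k, hk⟩ := hconj s hs
      have h1 : s * z * s⁻¹ = z ^ k := by
        rw [hzd, ← conj_pow, ← hk, ← pow_mul, ← pow_mul, mul_comm]
      have h2 : s * z ^ i * s⁻¹ = (z ^ k) ^ i := by
        rw [← h1, conj_zpow]
      rw [h2]
      exact Subgroup.zpow_mem _ (Subgroup.pow_mem _ (Subgroup.mem_zpowers z) k) i
    intro t ht
    rw [Subgroup.mem_normalizer_iff]
    intro w
    constructor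
    · exact key t ht w
    · intro hw
      have h3 := key t⁻¹ (T.inv_mem ht) _ hw
      have e : t⁻¹ * (t * w * t⁻¹) * t⁻¹⁻¹ = w := by group
      rwa [e] at h3
  obtain ⟨φ, hφ⟩ : ∃ φ : T →* MulAut (Subgroup.zpowers z),
      φ = (Subgroup.normalizerMonoidHom (Subgroup.zpowers z)).comp (Subgroup.inclusion hTΩ) :=
    ⟨_, rfl⟩
  have hker : φ.ker = (Subgroup.centralizer (P : Set G)).subgroupOf T := by
    ext t
    rw [MonoidHom.mem_ker, Subgroup.mem_subgroupOf]
    have h1 : φ t = 1 ↔ (t : G) ∈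
        Subgroup.centralizer ((Subgroup.zpowers z : Subgroup G) : Set G) := by
      have h2 : φ t = 1 ↔ Subgroup.inclusion hTΩ t ∈
          (Subgroup.normalizerMonoidHom (Subgroup.zpowers z)).ker := by
        rw [MonoidHom.mem_ker, hφ]
        rfl
      rw [h2, Subgroup.normalizerMonoidHom_ker, Subgroup.mem_subgroupOf]
      rfl
    rw [h1]
    constructor
    · intro h
      have h3 : (t : G) * z * (t : G)⁻¹ = z := by
        have h4 := Subgroup.mem_centralizer_iff.mp h z (Subgroup.mem_zpowers z)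
        rw [← h4]
        group
      exact hfree t.1 t.2 z hzP hz1 h3
    · intro h
      rw [Subgroup.mem_centralizer_iff]
      intro w hw
      exact Subgroup.mem_centralizer_iff.mp h w ((Subgroup.zpowers_le.mpr hzP) hw)
  haveI hkn : φ.ker.Normal := inferInstance
  obtain ⟨e1⟩ : Nonempty ((T ⧸ (Subgroup.centralizer (P : Set G)).subgroupOf T) ≃* φ.range) :=
    ⟨(QuotientGroup.quotientMulEquivOfEq hker.symm).trans
      (QuotientGroup.quotientKerEquivRange φ)⟩
  have hcardΩ : Nat.card (Subgroup.zpowers z) = p := by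
    rw [Nat.card_zpowers, hordz]
  obtain ⟨hAc, hAcard⟩ := zmod_units_cyclic (p := p) (Nat.card (Subgroup.zpowers z)) hcardΩ
  obtain ⟨ι, hι⟩ : ∃ ι : (T ⧸ (Subgroup.centralizer (P : Set G)).subgroupOf T) →*
      (ZMod (Nat.card (Subgroup.zpowers z)))ˣ, Function.Injective ι :=
    ⟨(IsCyclic.mulAutMulEquiv (Subgroup.zpowers z)).toMonoidHom.comp
      ((Subgroup.subtype φ.range).comp e1.toMonoidHom),
      (IsCyclic.mulAutMulEquiv (Subgroup.zpowers z)).injective.comp
        ((Subgroup.subtype_injective φ.range).comp e1.injective)⟩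
  refine ⟨isCyclic_of_injective ι hι, ?_, hfree⟩
  have h1 := Subgroup.card_dvd_of_injective ι hι
  rw [hAcard] at h1
  exact h1

end Cfsg.Agent.Lib.Helper24.CycInert
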