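import Mathlib

set_option autoImplicit false

namespace Cfsg.Agent.Lib.Helper24.FullDef

theorem exists_rel {K : Type*} [Field K] {ι κ : Type*} [Fintype ι] [Fintype κ] (v : ι → κ → K)
    (h : Fintype.card κ < Fintype.card ι) :
    ∃ g : ι → K, (∀ k, ∑ i, g i * v i k = 0) ∧ ∃ i, g i ≠ 0 := by
  by_contra hcon
  have hli : LinearIndependent K v := by
    rw [Fintype.linearIndependent_iff]
    intro g hg i
    by_contra hi
    apply hcon
    refine ⟨g, fun k => ?_, i, hi⟩
    have h1 := congrFun hg k
    simpa [Finset.sum_apply, Pi.smul_apply, smul_eq_mul] using h1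
  have h2 := hli.fintype_card_le_finrank
  rw [Module.finrank_fintype_fun_eq_card] at h2
  omega

theorem exists_compl {X : Type*} [Group X] [Finite X] (p : ℕ) [hp : Fact p.Prime]
    (S : Subgroup X) [hSn : S.Normal] (hS : IsPGroup p S) (hidx : ¬ p ∣ S.index) :
    ∃ H₀ : Subgroup X, H₀.Normal ∧ ¬ p ∣ Nat.card H₀ ∧
      ∀ x : X, x ∈ H₀ ↔ (¬ p ∣ orderOf x ∧ x ∈ Subgroup.centralizer (S : Set X)) := by
  obtain ⟨C, hC⟩ : ∃ C : Subgroup X, C = Subgroup.centralizer (S : Set X) := ⟨_, rfl⟩
  haveI hCn : C.Normal := by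
    rw [hC]
    infer_instance
  haveI hZn : (S.subgroupOf C).Normal := Subgroup.normal_subgroupOf
  have hZp : IsPGroup p (S.subgroupOf C) := hS.comap_subtype
  have hZidx : ¬ p ∣ (S.subgroupOf C).index :=
    fun h => hidx (h.trans (Subgroup.relIndex_dvd_index_of_normal S C))
  have hcop : (Nat.card (S.subgroupOf C)).Coprime (S.subgroupOf C).index := by
    obtain ⟨n, hn⟩ := IsPGroup.iff_card.mp hZp
    rw [hn]
    exact Nat.Coprime.pow_left n ((Nat.Prime.coprime_iff_not_dvd hp.out).mpr hZidx)
  obtain ⟨K, hK⟩ := Subgroup.exists_right_complement'_of_coprime hcop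
  have hKcard : Nat.card K = (S.subgroupOf C).index := (hK.symm.index_eq_card).symm
  have hKp : ¬ p ∣ Nat.card K := by
    rw [hKcard]
    exact hZidx
  have hchar : ∀ c : C, c ∈ K ↔ ¬ p ∣ orderOf c := by
    intro c
    constructor
    · intro hc hdvd
      have h1 : orderOf (⟨c, hc⟩ : K) ∣ Nat.card K := orderOf_dvd_natCard _
      have h2 : orderOf (⟨c, hc⟩ : K) = orderOf c := Subgroup.orderOf_mk c hc
      rw [h2] at h1
      exact hKp (hdvd.trans h1)
    · intro hreg
      obtain ⟨⟨z, k⟩, hzk, -⟩ := (Subgroup.isComplement_iff_existsUnique.mp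
        (Subgroup.isComplement'_def.mp hK)) c
      have hzk' : (z : C) * (k : C) = c := hzk
      have hzS : ((z : C) : X) ∈ S := Subgroup.mem_subgroupOf.mp z.2
      have hkC : ((k : C) : X) ∈ Subgroup.centralizer (S : Set X) := by
        rw [← hC]
        exact (k : C).2
      have hcomm : Commute (z : C) (k : C) := by
        apply Subtype.ext
        rw [Subgroup.coe_mul, Subgroup.coe_mul]
        exact hkC _ hzS
      have hkpow : (k : C) ^ Nat.card K = 1 := by
        have h1 : k ^ Nat.card K = 1 := pow_card_eq_one'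
        have h2 := congrArg (Subtype.val : K → C) h1
        rw [Subgroup.coe_pow, Subgroup.coe_one] at h2
        exact h2
      have hz : (z : C) ^ Nat.card K = c ^ Nat.card K := by
        rw [← hzk', hcomm.mul_pow, hkpow, mul_one]
      obtain ⟨j, hj⟩ := hZp z
      have hj' : (z : C) ^ p ^ j = 1 := by
        have h2 := congrArg (Subtype.val : S.subgroupOf C → C) hj
        rw [Subgroup.coe_pow, Subgroup.coe_one] at h2
        exact h2
      have hz1 : (z : C) ^ Nat.card K = 1 := by
        have hw1 : ((z : C) ^ Nat.card K) ^ (p ^ j) = 1 := by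
          rw [← pow_mul, mul_comm, pow_mul, hj', one_pow]
        have hw2 : ((z : C) ^ Nat.card K) ^ orderOf c = 1 := by
          rw [hz, ← pow_mul, mul_comm, pow_mul, pow_orderOf_eq_one, one_pow]
        have hco : Nat.gcd (p ^ j) (orderOf c) = 1 :=
          Nat.Coprime.pow_left j ((Nat.Prime.coprime_iff_not_dvd hp.out).mpr hreg)
        have h3 := pow_gcd_eq_one.mpr ⟨hw1, hw2⟩
        rw [hco, pow_one] at h3
        exact h3
      have hz2 : (z : C) = 1 := by
        have hco : Nat.gcd (p ^ j) (Nat.card K) = 1 :=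
          Nat.Coprime.pow_left j ((Nat.Prime.coprime_iff_not_dvd hp.out).mpr hKp)
        have h3 := pow_gcd_eq_one.mpr ⟨hj', hz1⟩
        rw [hco, pow_one] at h3
        exact h3
      rw [← hzk', hz2, one_mul]
      exact k.2
  have hmem : ∀ x : X, x ∈ K.map C.subtype ↔
      (¬ p ∣ orderOf x ∧ x ∈ Subgroup.centralizer (S : Set X)) := by
    intro x
    constructor
    · rintro ⟨c, hc, rfl⟩
      refine ⟨?_, ?_⟩
      · have h1 := (hchar c).mp hc
        rw [← Subgroup.orderOf_coe] at h1
        exact h1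
      · rw [← hC]
        exact c.2
    · rintro ⟨hreg, hx⟩
      have hxC : x ∈ C := by
        rw [hC]
        exact hx
      refine ⟨⟨x, hxC⟩, ?_, rfl⟩
      apply (hchar _).mpr
      rw [← Subgroup.orderOf_coe]
      exact hreg
  refine ⟨K.map C.subtype, ⟨?_⟩, ?_, hmem⟩
  · intro x hx g
    obtain ⟨hreg, hxc⟩ := (hmem x).mp hx
    apply (hmem _).mpr
    refine ⟨?_, ?_⟩
    · have h1 : orderOf (g * x * g⁻¹) = orderOf x := by
        have h2 := (MulAut.conj g).orderOf_eq x
        rw [MulAut.conj_apply] at h2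
        exact h2
      rw [h1]
      exact hreg
    · have hxC : x ∈ C := by
        rw [hC]
        exact hxc
      have h3 := hCn.conj_mem x hxC g
      rw [hC] at h3
      exact h3
  · have h1 : Nat.card (K.map C.subtype) = Nat.card K :=
      Nat.card_congr (K.equivMapOfInjective C.subtype C.subtype_injective).symm.toEquiv
    rw [h1]
    exact hKp

end Cfsg.Agent.Lib.Helper24.FullDef
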