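import Mathlib
import Cfsg.Prelude.Def_Blocks
import Cfsg.Agent.Lib.Helper6.LocalRing
import Cfsg.Agent.Lib.Helper6.BlockVanish
import Cfsg.Agent.Lib.Helper24.CharBasic

set_option autoImplicit false

namespace Cfsg.Agent.Lib.Helper24.SmallFaith

open Cfsg Cfsg.Agent.Lib.Helper6

theorem exists_eigenbasis.{u} {V : Type u} [AddCommGroup V] [Module ℂ V] [FiniteDimensional ℂ V]
    (f : Module.End ℂ V) (m : ℕ) (hm : 0 < m) (hf : f ^ m = 1) :
    ∃ (ι : Type u) (_ : Fintype ι) (b : Module.Basis ι ℂ V) (d : ι → ℂ),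
      ∀ i, f (b i) = d i • b i := by
  have hss : f.IsSemisimple := by
    apply Module.End.isSemisimple_of_squarefree_aeval_eq_zero (p := Polynomial.X ^ m - 1)
    · exact (Polynomial.X_pow_sub_one_separable_iff.mpr (by exact_mod_cast hm.ne')).squarefree
    · simp [hf]
  have htop := hss.iSup_eigenspace_eq_top
  obtain ⟨S, hS⟩ : ∃ S : Set V, S = {v | ∃ μ : ℂ, f v = μ • v} := ⟨_, rfl⟩
  have hspan : Submodule.span ℂ S = ⊤ := by
    rw [eq_top_iff, ← htop]
    apply iSup_le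
    intro μ v hv
    apply Submodule.subset_span
    rw [hS]
    exact ⟨μ, Module.End.mem_eigenspace_iff.mp hv⟩
  obtain ⟨b, hbS, hbspan, hbli⟩ := exists_linearIndependent ℂ S
  have hfin : b.Finite := hbli.setFinite
  have hft : Fintype ↥b := hfin.fintype
  have hsp : ⊤ ≤ Submodule.span ℂ (Set.range (fun x : ↥b => (x : V))) := by
    rw [Subtype.range_coe, hbspan, hspan]
  have hmem : ∀ i : ↥b, ∃ μ : ℂ, f (i : V) = μ • (i : V) := by
    intro i
    have h1 : (i : V) ∈ S := hbS i.2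
    rw [hS] at h1
    exact h1
  choose d hd using hmem
  refine ⟨↥b, hft, Module.Basis.mk hbli hsp, d, ?_⟩
  intro i
  rw [Module.Basis.mk_apply]
  exact hd i

theorem pow_diag.{u} {V : Type u} [AddCommGroup V] [Module ℂ V] {ι : Type u}
    (b : Module.Basis ι ℂ V) (d : ι → ℂ) (f : Module.End ℂ V)
    (h : ∀ i, f (b i) = d i • b i) (k : ℕ) (i : ι) : (f ^ k) (b i) = d i ^ k • b i := by
  induction k with
  | zero => simp
  | succ k ih =>
    rw [pow_succ', Module.End.mul_apply, ih, map_smul, h i, smul_smul, pow_succ]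

theorem toMatrix_diag.{u} {V : Type u} [AddCommGroup V] [Module ℂ V] {ι : Type u} [Fintype ι]
    [DecidableEq ι] (b : Module.Basis ι ℂ V) (d : ι → ℂ) (f : Module.End ℂ V)
    (h : ∀ i, f (b i) = d i • b i) : LinearMap.toMatrix b b f = Matrix.diagonal d := by
  ext i j
  rw [LinearMap.toMatrix_apply, h j, Matrix.diagonal_apply]
  by_cases hij : i = j
  · subst hij
    simp
  · simp [hij, Finsupp.single_apply, Ne.symm hij]

theorem trace_diag.{u} {V : Type u} [AddCommGroup V] [Module ℂ V] {ι : Type u} [Fintype ι]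
    [DecidableEq ι] (b : Module.Basis ι ℂ V) (d : ι → ℂ) (f : Module.End ℂ V)
    (h : ∀ i, f (b i) = d i • b i) : LinearMap.trace ℂ V f = ∑ i, d i := by
  rw [LinearMap.trace_eq_matrix_trace ℂ b, toMatrix_diag b d f h, Matrix.trace_diagonal]

theorem det_diag.{u} {V : Type u} [AddCommGroup V] [Module ℂ V] {ι : Type u} [Fintype ι]
    [DecidableEq ι] (b : Module.Basis ι ℂ V) (d : ι → ℂ) (f : Module.End ℂ V)
    (h : ∀ i, f (b i) = d i • b i) : LinearMap.det f = ∏ i, d i := by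
  rw [← LinearMap.det_toMatrix b, toMatrix_diag b d f h, Matrix.det_diagonal]

theorem geo_zero (m : ℕ) (w : ℂ) (hw : w ^ m = 1) (hw1 : w ≠ 1) :
    ∑ k ∈ Finset.range m, w ^ k = 0 := by
  have h := geom_sum_mul w m
  rw [hw, sub_self] at h
  rcases mul_eq_zero.mp h with h | h
  · exact h
  · exact absurd (sub_eq_zero.mp h) hw1

theorem count_dvd {ι : Type*} [Fintype ι] [DecidableEq ι] (d : ι → ℂ) (m p : ℕ) (hp : p.Prime)
    (hm : 0 < m) (hpm : ¬ p ∣ m) (hd : ∀ i, d i ^ m = 1) (I : ℂ → Prop)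
    (hadd : ∀ (s : Finset ℕ) (F : ℕ → ℂ), (∀ k ∈ s, I (F k)) → I (∑ k ∈ s, F k))
    (hmul : ∀ (a ζ : ℂ), ζ ^ m = 1 → I a → I (ζ * a))
    (hnat : ∀ n : ℕ, I (n : ℂ) → p ∣ n)
    (hk : ∀ k : ℕ, I (∑ i, d i ^ k - (Fintype.card ι : ℂ)))
    (ζ : ℂ) (hζ : ζ ^ m = 1) (hζ1 : ζ ≠ 1) :
    p ∣ (Finset.univ.filter (fun i => d i = ζ)).card := by
  have hζ0 : ζ ≠ 0 := by
    rintro rfl
    rw [zero_pow hm.ne'] at hζ
    exact zero_ne_one hζ
  have hinv : (ζ⁻¹) ^ m = 1 := by rw [inv_pow, hζ, inv_one]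
  have hinv1 : ζ⁻¹ ≠ 1 := by
    intro h
    apply hζ1
    rw [← inv_inv ζ, h, inv_one]
  have hI : I (∑ k ∈ Finset.range m, (ζ⁻¹) ^ k * (∑ i, d i ^ k - (Fintype.card ι : ℂ))) := by
    apply hadd
    intro k _
    exact hmul _ _ (by rw [← pow_mul, mul_comm, pow_mul, hinv, one_pow]) (hk k)
  have h2 : ∀ i, ∑ k ∈ Finset.range m, (ζ⁻¹ * d i) ^ k = if d i = ζ then (m : ℂ) else 0 := by
    intro i
    by_cases hi : d i = ζ
    · rw [if_pos hi, hi, inv_mul_cancel₀ hζ0]
      simp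
    · rw [if_neg hi]
      apply geo_zero
      · rw [mul_pow, hinv, hd i, one_mul]
      · intro h
        apply hi
        have h3 : ζ * (ζ⁻¹ * d i) = ζ * 1 := by rw [h]
        rw [mul_inv_cancel_left₀ hζ0, mul_one] at h3
        exact h3
  have heq : ∑ k ∈ Finset.range m, (ζ⁻¹) ^ k * (∑ i, d i ^ k - (Fintype.card ι : ℂ))
      = ((m * (Finset.univ.filter (fun i => d i = ζ)).card : ℕ) : ℂ) := by
    have h1 : ∀ k, (ζ⁻¹) ^ k * (∑ i, d i ^ k - (Fintype.card ι : ℂ))
        = ∑ i, (ζ⁻¹ * d i) ^ k - (Fintype.card ι : ℂ) * (ζ⁻¹) ^ k := by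
      intro k
      rw [mul_sub, Finset.mul_sum]
      congr 1
      · apply Finset.sum_congr rfl
        intro i _
        rw [mul_pow]
      · ring
    simp_rw [h1]
    rw [Finset.sum_sub_distrib, ← Finset.mul_sum, geo_zero m _ hinv hinv1, mul_zero, sub_zero,
      Finset.sum_comm]
    simp_rw [h2]
    rw [Finset.sum_ite, Finset.sum_const_zero, add_zero, Finset.sum_const, nsmul_eq_mul]
    push_cast
    ring
  rw [heq] at hI
  have h3 := hnat _ hI
  exact (hp.coprime_iff_not_dvd.mpr hpm).dvd_of_dvd_mul_left h3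

theorem all_one {ι : Type*} [Fintype ι] [DecidableEq ι] (d : ι → ℂ) (m p : ℕ) (hp : p.Prime)
    (hm : 0 < m) (hpm : ¬ p ∣ m) (hd : ∀ i, d i ^ m = 1) (hn : Fintype.card ι < 2 * p)
    (hprod : ∏ i, d i = 1) (I : ℂ → Prop)
    (hadd : ∀ (s : Finset ℕ) (F : ℕ → ℂ), (∀ k ∈ s, I (F k)) → I (∑ k ∈ s, F k))
    (hmul : ∀ (a ζ : ℂ), ζ ^ m = 1 → I a → I (ζ * a))
    (hnat : ∀ n : ℕ, I (n : ℂ) → p ∣ n)
    (hk : ∀ k : ℕ, I (∑ i, d i ^ k - (Fintype.card ι : ℂ))) : ∀ i, d i = 1 := by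
  by_contra hcon
  push Not at hcon
  obtain ⟨i₀, hi₀⟩ := hcon
  have hdv := fun ζ hζ hζ1 => count_dvd d m p hp hm hpm hd I hadd hmul hnat hk ζ hζ hζ1
  have hbig : ∀ i, d i ≠ 1 → p ≤ (Finset.univ.filter (fun j => d j = d i)).card := by
    intro i hi
    apply Nat.le_of_dvd
    · apply Finset.card_pos.mpr
      exact ⟨i, by simp⟩
    · exact hdv (d i) (hd i) hi
  have hall : ∀ i, d i = 1 ∨ d i = d i₀ := by
    intro i
    by_contra hc
    push Not at hc
    have h1 := hbig i hc.1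
    have h0 := hbig i₀ hi₀
    have hdisj : Disjoint (Finset.univ.filter (fun j => d j = d i))
        (Finset.univ.filter (fun j => d j = d i₀)) := by
      rw [Finset.disjoint_left]
      intro j hj hj'
      rw [Finset.mem_filter] at hj hj'
      exact hc.2 (hj.2.symm.trans hj'.2)
    have hle : ((Finset.univ.filter (fun j => d j = d i)) ∪
        (Finset.univ.filter (fun j => d j = d i₀))).card ≤ Fintype.card ι :=
      Finset.card_le_univ _
    rw [Finset.card_union_of_disjoint hdisj] at hle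
    omega
  have h0 := hbig i₀ hi₀
  have hle : (Finset.univ.filter (fun j => d j = d i₀)).card ≤ Fintype.card ι :=
    Finset.card_le_univ _
  have hdvd := hdv (d i₀) (hd i₀) hi₀
  have hcard : (Finset.univ.filter (fun j => d j = d i₀)).card = p := by
    obtain ⟨c, hc⟩ := hdvd
    have hc1 : c = 1 := by
      have hpos : 0 < p := hp.pos
      have h2 : p * c < 2 * p := by omega
      have h3 : 0 < c := by
        rcases Nat.eq_zero_or_pos c with h | h
        · rw [h, mul_zero] at hc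
          omega
        · exact h
      have h4 : c < 2 := by
        by_contra h5
        have h6 : 2 ≤ c := by omega
        have h7 : p * 2 ≤ p * c := Nat.mul_le_mul_left p h6
        omega
      omega
    rw [hc, hc1, mul_one]
  have hprod2 : ∏ i, d i = d i₀ ^ p := by
    have h1 : ∀ i, d i = if d i = d i₀ then d i₀ else 1 := by
      intro i
      by_cases h : d i = d i₀
      · rw [if_pos h, h]
      · rw [if_neg h]
        rcases hall i with h' | h'
        · exact h'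
        · exact absurd h' h
    rw [Finset.prod_congr rfl (fun i _ => h1 i), Finset.prod_ite, Finset.prod_const_one, mul_one,
      Finset.prod_const, hcard]
  rw [hprod2] at hprod
  have h5 := pow_gcd_eq_one.mpr ⟨hd i₀, hprod⟩
  have h6 : Nat.gcd m p = 1 := by
    have := hp.coprime_iff_not_dvd.mpr hpm
    rw [Nat.coprime_comm] at this
    exact this
  rw [h6, pow_one] at h5
  exact hi₀ h5

theorem mem_ideal {G : Type*} [Group G] [Finite G] (p : ℕ) [Fact p.Prime]
    (M : Ideal Cfsg.AlgInt) (hM : Cfsg.IsPModular p M) (P : Sylow p G)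
    (χ : Cfsg.IrrCharacter G) (hχ : χ ∈ Cfsg.principalBlock M G) (y : G)
    (hy : y ∈ Subgroup.centralizer ((P : Subgroup G) : Set G)) :
    Cfsg.MemLocalIdeal M ((χ : G → ℂ) y - (χ : G → ℂ) 1) := by
  have hfinG : Fintype G := Fintype.ofFinite G
  have hmax : M.IsMaximal := hM.2.1
  have hle : (P : Subgroup G) ≤ Subgroup.centralizer ({y} : Set G) := by
    intro g hg
    rw [Subgroup.mem_centralizer_iff]
    intro h hh
    rw [Set.mem_singleton_iff] at hh
    rw [hh]
    exact (hy g hg).symm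
  have hc : ¬ p ∣ (Subgroup.centralizer ({y} : Set G)).index := by
    intro h
    exact P.not_dvd_index (h.trans (Subgroup.index_dvd_of_le hle))
  have h : Cfsg.SameBlock M (fun _ : G => (1 : ℂ)) (χ : G → ℂ) := hχ
  have h1 := h y
  have hχ1 := Cfsg.Agent.Lib.Helper24.CharBasic.char_one_nat
    (Cfsg.Agent.Lib.Helper24.CharBasic.isCharacter_of_irr χ.2)
  have hne : (χ : G → ℂ) 1 ≠ 0 := by
    have := Cfsg.Agent.Lib.Helper24.CharBasic.irr_one_ne_zero χ.2
    exact this
  have h2 : ((Subgroup.centralizer ({y} : Set G)).index : ℂ) * ((χ : G → ℂ) 1 - (χ : G → ℂ) y)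
      = (χ : G → ℂ) 1 * (Cfsg.centralChar (fun _ : G => (1 : ℂ)) y
        - Cfsg.centralChar (χ : G → ℂ) y) := by
    show _ = (χ : G → ℂ) 1 * (((Subgroup.centralizer ({y} : Set G)).index : ℂ) * 1 / 1
      - ((Subgroup.centralizer ({y} : Set G)).index : ℂ) * (χ : G → ℂ) y / (χ : G → ℂ) 1)
    field_simp
  have h3 : Cfsg.MemLocalIdeal M (((Subgroup.centralizer ({y} : Set G)).index : ℂ)
      * ((χ : G → ℂ) 1 - (χ : G → ℂ) y)) := by
    rw [h2]
    exact MemLocalIdeal.mul_left hmax (memLocalRing_of_isIntegral hmax (isIntegral_irr χ 1)) h1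
  have h4 : Cfsg.MemLocalRing M ((χ : G → ℂ) 1 - (χ : G → ℂ) y) :=
    MemLocalRing.sub hmax (memLocalRing_of_isIntegral hmax (isIntegral_irr χ 1))
      (memLocalRing_of_isIntegral hmax (isIntegral_irr χ y))
  rcases (memLocalIdeal_mul_iff hmax (memLocalRing_natCast hmax _) h4).mp h3 with h5 | h5
  · exact absurd ((memLocalIdeal_natCast_iff hM _).mp h5) hc
  · have h6 := MemLocalIdeal.neg h5
    rw [neg_sub] at h6
    exact h6

theorem det_one_of_perfect {G : Type*} [Group G] (hperf : commutator G = ⊤) {n : ℕ}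
    (ρ : Representation ℂ G (Fin n → ℂ)) (x : G) : LinearMap.det (ρ x) = 1 := by
  obtain ⟨φ, hφ⟩ : ∃ φ : G →* ℂ, φ = (LinearMap.det : ((Fin n → ℂ) →ₗ[ℂ] (Fin n → ℂ)) →* ℂ).comp ρ :=
    ⟨_, rfl⟩
  have h1 : commutator G ≤ (MonoidHom.toHomUnits φ).ker :=
    Abelianization.commutator_subset_ker _
  have h2 : x ∈ (MonoidHom.toHomUnits φ).ker := h1 (by rw [hperf]; exact Subgroup.mem_top x)
  rw [MonoidHom.mem_ker] at h2
  have h3 : ((MonoidHom.toHomUnits φ x : ℂˣ) : ℂ) = 1 := by rw [h2]; rfl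
  rw [MonoidHom.coe_toHomUnits] at h3
  rw [hφ] at h3
  exact h3

theorem char_eq {G : Type*} [Group G] [Finite G] (p : ℕ) [Fact p.Prime]
    (M : Ideal Cfsg.AlgInt) (hM : Cfsg.IsPModular p M) (hperf : commutator G = ⊤)
    (P : Sylow p G) (χ : Cfsg.IrrCharacter G) (hχ : χ ∈ Cfsg.principalBlock M G)
    (hdeg : Cfsg.charDegree (χ : G → ℂ) < 2 * p) (x : G)
    (hx : x ∈ Subgroup.centralizer ((P : Subgroup G) : Set G)) (hxp : ¬ p ∣ orderOf x) :
    (χ : G → ℂ) x = (χ : G → ℂ) 1 := by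
  have hmax : M.IsMaximal := hM.2.1
  obtain ⟨n, ρ, hirr, hρ⟩ := χ.2
  have hm : 0 < orderOf x := orderOf_pos x
  have hf : ρ x ^ orderOf x = 1 := by rw [← map_pow, pow_orderOf_eq_one, map_one]
  obtain ⟨ι, hι, b, d, hbd⟩ := exists_eigenbasis (ρ x) (orderOf x) hm hf
  classical
  have hpow := pow_diag b d (ρ x) hbd
  have htr : ∀ k : ℕ, (χ : G → ℂ) (x ^ k) = ∑ i, d i ^ k := by
    intro k
    rw [← hρ]
    show LinearMap.trace ℂ _ (ρ (x ^ k)) = _
    rw [map_pow]
    exact trace_diag b (fun i => d i ^ k) (ρ x ^ k) (hpow k)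
  have hcard : (χ : G → ℂ) 1 = (Fintype.card ι : ℂ) := by
    have h := htr 0
    rw [pow_zero] at h
    rw [h]
    simp
  have hdm : ∀ i, d i ^ orderOf x = 1 := by
    intro i
    have h := hpow (orderOf x) i
    rw [hf, Module.End.one_apply] at h
    have h2 : (1 - d i ^ orderOf x) • b i = 0 := by
      rw [sub_smul, one_smul, ← h, sub_self]
    rcases smul_eq_zero.mp h2 with h3 | h3
    · exact (sub_eq_zero.mp h3).symm
    · exact absurd h3 (b.ne_zero i)
  have hdet : ∏ i, d i = 1 := by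
    rw [← det_diag b d (ρ x) hbd]
    exact det_one_of_perfect hperf ρ x
  have hlt : Fintype.card ι < 2 * p := by
    have h : ⌊((χ : G → ℂ) 1).re⌋₊ < 2 * p := hdeg
    rw [hcard] at h
    simpa using h
  have hk : ∀ k : ℕ, Cfsg.MemLocalIdeal M (∑ i, d i ^ k - (Fintype.card ι : ℂ)) := by
    intro k
    rw [← htr k, ← hcard]
    exact mem_ideal p M hM P χ hχ (x ^ k) (pow_mem hx k)
  have hall := all_one d (orderOf x) p (Fact.out : p.Prime) hm hxp hdm hlt hdet
    (Cfsg.MemLocalIdeal M)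
    (fun s F h => memLocalIdeal_sum hmax s F h)
    (fun a ζ hζ ha => MemLocalIdeal.mul_left hmax
      (memLocalRing_of_isIntegral hmax (IsIntegral.of_pow hm (by rw [hζ]; exact isIntegral_one)))
      ha)
    (fun n h => (memLocalIdeal_natCast_iff hM n).mp h) hk
  have h1 := htr 1
  rw [pow_one] at h1
  rw [h1, hcard]
  simp [hall]

end Cfsg.Agent.Lib.Helper24.SmallFaith
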